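import Mathlib
import Cfsg.Prelude.Def_Solvable

/-!
# Project FOT (S3999): interface

Same order type as a Frobenius group implies Frobenius, and solvability is equivalent.
All packages are closed `Prop`s, universe polymorphic.
-/

set_option autoImplicit false
open scoped Pointwise

namespace Cfsg.Agent.Lib.Helper50.FOT

universe u v

/-- Frobenius data of a finite group `X`: a normal nilpotent complement `K` of `C`, of coprime order,
both nontrivial, every element lies in `K` or in a conjugate of `C`, and no nontrivial element of `C`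
commutes with a nontrivial element of `K`. -/
structure FD (X : Type u) [Group X] (K C : Subgroup X) : Prop where
  normal : K.Normal
  nilp : Group.IsNilpotent K
  compl : Subgroup.IsComplement' K C
  cop : (Nat.card K).Coprime (Nat.card C)
  kgt : 1 < Nat.card K
  cgt : 1 < Nat.card C
  cover : ∀ x : X, x ∈ K ∨ ∃ g : X, x ∈ MulAut.conj g • C
  fpf : ∀ y ∈ C, y ≠ 1 → ∀ x ∈ K, x * y = y * x → x = 1

/-- [BIJ] an order-preserving bijection from equality of the order types. -/
def PkgBij : Prop :=
  ∀ (F : Type u) (G : Type v) [Group F] [Finite F] [Group G] [Finite G],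
    (∀ m : ℕ, Nat.card {g : F // orderOf g = m} = Nat.card {h : G // orderOf h = m}) →
    ∃ e : F ≃ G, ∀ x : F, orderOf (e x) = orderOf x

/-- [FF] Frobenius facts (from the landed S0034, S0035, S0042). -/
def PkgFF : Prop :=
  ∀ (X : Type u) [Group X] [Finite X] (C : Subgroup X), Cfsg.IsFrobeniusComplement C →
    ∃ K : Subgroup X, FD X K C

/-- [ORD] element orders in a Frobenius group, and the count of `p`-elements for `p ∣ |K|`. -/
def PkgOrd : Prop :=
  ∀ (X : Type u) [Group X] [Finite X] (K C : Subgroup X), FD X K C →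
    (∀ x : X, orderOf x ∣ Nat.card K ∨ orderOf x ∣ Nat.card C) ∧
    ∀ p : ℕ, p.Prime → p ∣ Nat.card K →
      Nat.card {x : X // orderOf x ∣ p ^ (Nat.card K).factorization p} = p ^ (Nat.card K).factorization p

/-- [HALLN] unique Sylow subgroups for the primes of `n` give a normal subgroup of order `n`. -/
def PkgHallN : Prop :=
  ∀ (G : Type u) [Group G] [Finite G] (n h : ℕ), Nat.card G = n * h → n.Coprime h →
    (∀ p : ℕ, p.Prime → p ∣ n →
      Nat.card {g : G // orderOf g ∣ p ^ n.factorization p} = p ^ n.factorization p) →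
    ∃ N : Subgroup G, N.Normal ∧ Nat.card N = n

/-- [GFROB] a normal Hall subgroup and no elements of mixed order give a Frobenius complement. -/
def PkgGFrob : Prop :=
  ∀ (G : Type u) [Group G] [Finite G] (n h : ℕ) (N : Subgroup G), N.Normal → Nat.card N = n →
    Nat.card G = n * h → n.Coprime h → 1 < n → 1 < h →
    (∀ g : G, orderOf g ∣ n ∨ orderOf g ∣ h) →
    ∃ H : Subgroup G, Cfsg.IsFrobeniusComplement H ∧ Nat.card H = h

/-- [CNT] elements of order `m` prime to `|K|` in a Frobenius group. -/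
def PkgCnt : Prop :=
  ∀ (X : Type u) [Group X] [Finite X] (K C : Subgroup X), FD X K C →
    ∀ m : ℕ, m ≠ 1 → m.Coprime (Nat.card K) →
      Nat.card {x : X // orderOf x = m} = Nat.card K * Nat.card {y : C // orderOf y = m}

/-- [SOLV] a Frobenius group is solvable iff its complement is. -/
def PkgSolv : Prop :=
  ∀ (X : Type u) [Group X] [Finite X] (K C : Subgroup X), FD X K C →
    (Group.IsSolvable X ↔ Group.IsSolvable C)

/-- [SL25] a nonsolvable Frobenius complement has exactly 24 elements of order 5, and `5 ∥ |C|`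
(from the landed S3359). -/
def PkgSL25 : Prop :=
  ∀ (X : Type u) [Group X] [Finite X] (C : Subgroup X), Cfsg.IsFrobeniusComplement C →
    ¬ Group.IsSolvable C →
    Nat.card {y : C // orderOf y = 5} = 24 ∧ 5 ∣ Nat.card C ∧ ¬ 25 ∣ Nat.card C

/-- [SYL6] a finite solvable group never has exactly six Sylow 5-subgroups. -/
def PkgSyl6 : Prop :=
  ∀ (H : Type u) [Group H] [Finite H], Group.IsSolvable H → Nat.card (Sylow 5 H) ≠ 6

/-- [CNT5] if `5 ∥ |H|` the number of elements of order 5 is four times the number of Sylow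
5-subgroups. -/
def PkgCnt5 : Prop :=
  ∀ (H : Type u) [Group H] [Finite H], 5 ∣ Nat.card H → ¬ 25 ∣ Nat.card H →
    Nat.card {y : H // orderOf y = 5} = 4 * Nat.card (Sylow 5 H)

/-- [HALL6] (glue of SYL6 and CNT5). -/
def PkgHall6 : Prop :=
  ∀ (H : Type u) [Group H] [Finite H], Group.IsSolvable H → 5 ∣ Nat.card H → ¬ 25 ∣ Nat.card H →
    Nat.card {y : H // orderOf y = 5} ≠ 24

theorem pkgHall6_of (hS : PkgSyl6.{u}) (hC : PkgCnt5.{u}) : PkgHall6.{u} := by
  intro H _ _ hsol h5 h25 h24
  have h1 := hC H h5 h25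
  have h2 := hS H hsol
  omega

/-- The assembly: S3999 from the packages. -/
theorem s3999_of {F : Type u} {G : Type v} [Group F] [Finite F] [Group G] [Finite G]
    (hBij : PkgBij.{u, v}) (hFFu : PkgFF.{u}) (hFFv : PkgFF.{v}) (hOrd : PkgOrd.{u})
    (hHallN : PkgHallN.{v}) (hGFrob : PkgGFrob.{v}) (hCntu : PkgCnt.{u}) (hCntv : PkgCnt.{v})
    (hSolvu : PkgSolv.{u}) (hSolvv : PkgSolv.{v}) (hSLu : PkgSL25.{u}) (hSLv : PkgSL25.{v})
    (hH6u : PkgHall6.{u}) (hH6v : PkgHall6.{v})
    (hF : ∃ C : Subgroup F, Cfsg.IsFrobeniusComplement C)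
    (hT : ∀ m : ℕ, Nat.card {g : F // orderOf g = m} = Nat.card {h : G // orderOf h = m}) :
    (∃ C : Subgroup G, Cfsg.IsFrobeniusComplement C) ∧ (Group.IsSolvable G ↔ Group.IsSolvable F) := by
  obtain ⟨C, hC⟩ := hF
  obtain ⟨K, hK⟩ := hFFu F C hC
  obtain ⟨e, he⟩ := hBij F G hT
  obtain ⟨hdiv, hcnt⟩ := hOrd F K C hK
  have hFc : Nat.card F = Nat.card K * Nat.card C := hK.compl.card_mul_card.symm
  have hGc : Nat.card G = Nat.card K * Nat.card C := by
    rw [← hFc]; exact (Nat.card_congr e).symm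
  have hdivG : ∀ g : G, orderOf g ∣ Nat.card K ∨ orderOf g ∣ Nat.card C := fun g => by
    have h1 := hdiv (e.symm g)
    rwa [← he (e.symm g), e.apply_symm_apply] at h1
  have hcntG : ∀ p : ℕ, p.Prime → p ∣ Nat.card K →
      Nat.card {g : G // orderOf g ∣ p ^ (Nat.card K).factorization p}
        = p ^ (Nat.card K).factorization p := by
    intro p hp hpn
    exact ((Nat.card_congr (e.subtypeEquiv (fun x => by rw [he]))).symm).trans (hcnt p hp hpn)
  obtain ⟨N, hNn, hNc⟩ := hHallN G (Nat.card K) (Nat.card C) hGc hK.cop hcntG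
  obtain ⟨H, hH, hHc⟩ := hGFrob G (Nat.card K) (Nat.card C) N hNn hNc hGc hK.cop hK.kgt hK.cgt hdivG
  refine ⟨⟨H, hH⟩, ?_⟩
  obtain ⟨K', hK'⟩ := hFFv G H hH
  have hK'c : Nat.card K' = Nat.card K := by
    have h1 := hK'.compl.card_mul_card
    rw [hHc, hGc] at h1
    exact Nat.eq_of_mul_eq_mul_right (by have := hK.cgt; omega) h1
  rw [hSolvv G K' H hK', hSolvu F K C hK]
  have key : (5 : ℕ).Coprime (Nat.card K) →
      Nat.card {y : H // orderOf y = 5} = Nat.card {y : C // orderOf y = 5} := by
    intro h5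
    have h1 := hCntu F K C hK 5 (by norm_num) h5
    have h2 := hCntv G K' H hK' 5 (by norm_num) (by rw [hK'c]; exact h5)
    have h3 : Nat.card {x : F // orderOf x = 5} = Nat.card {x : G // orderOf x = 5} := hT 5
    rw [hK'c] at h2
    have h4 : Nat.card K * Nat.card {y : H // orderOf y = 5}
        = Nat.card K * Nat.card {y : C // orderOf y = 5} := by rw [← h2, ← h1, h3]
    exact Nat.eq_of_mul_eq_mul_left (by have := hK.kgt; omega) h4
  constructor
  · intro hHs
    by_contra hCs
    obtain ⟨c24, c5, c25⟩ := hSLu F C hC hCs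
    have h5n : (5 : ℕ).Coprime (Nat.card K) := Nat.Coprime.coprime_dvd_left c5 hK.cop.symm
    have hk := key h5n
    exact hH6v H hHs (by rw [hHc]; exact c5) (by rw [hHc]; exact c25) (by rw [hk]; exact c24)
  · intro hCs
    by_contra hHs
    obtain ⟨c24, c5, c25⟩ := hSLv G H hH hHs
    rw [hHc] at c5 c25
    have h5n : (5 : ℕ).Coprime (Nat.card K) := Nat.Coprime.coprime_dvd_left c5 hK.cop.symm
    have hk := key h5n
    exact hH6u C hCs c5 c25 (by rw [← hk]; exact c24)

end Cfsg.Agent.Lib.Helper50.FOT
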